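import Cfsg.Agent.H969.KGL.Small

/-!
# Task E7 of project KGL: numeric assembly of the symplectic type case
-/

set_option autoImplicit false

namespace Cfsg.Agent.H969.KGL

open Subgroup Cfsg.Agent.H475.KGL

universe u v

/-- The rows of the symplectic type case. -/
structure ERows : Prop where
  b52 : EBd 5 2 9
  b2 : ∀ p, EBd p 2 15
  b33 : EBd 3 3 50
  b53 : EBd 5 3 1502
  b73 : EBd 7 3 14781
  b3 : ∀ p, EBd p 3 30240
  b34 : EBd 3 4 83748
  b54 : EBd 5 4 148431800
  b74 : EBd 7 4 21551835648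
  b35 : EBd 3 5 903912287244

theorem prime_cases {p : ℕ} (hp : p.Prime) (h2 : p ≠ 2) : p = 3 ∨ p = 5 ∨ p = 7 ∨ 11 ≤ p := by
  by_contra h
  push Not at h
  obtain ⟨h3, h5, h7, h11⟩ := h
  interval_cases p <;> first | omega | exact absurd hp (by norm_num)

theorem pow_ne {p e a b m : ℕ} (hp : p.Prime) (ha : a.Prime) (hb : b.Prime) (hab : a ≠ b) (h1 : a ∣ m) (h2 : b ∣ m) :
    p ^ e ≠ m := by
  rintro rfl
  exact hab (((Nat.prime_dvd_prime_iff_eq ha hp).1 (ha.dvd_of_dvd_pow h1)).trans
    ((Nat.prime_dvd_prime_iff_eq hb hp).1 (hb.dvd_of_dvd_pow h2)).symm)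

theorem two_case {p e n κ : ℕ} (hp : p.Prime) (he : 1 ≤ e) (R : ERows) (hn : 1 ≤ n) (hd : 2 ∣ p ^ e - 1)
    (h1 : n ≠ 1) (h2 : ¬ (p = 3 ∧ e = 1 ∧ n = 2))
    (hE : ∀ κ', EBd p n κ' → κ ≤ κ')
    (hT : κ ≤ 2 ^ (n ^ 2) * ∏ i ∈ Finset.range n, (2 ^ (2 * (i + 1)) - 1)) : NumC p e 2 n κ := by
  have hmono : ∀ {κ' : ℕ}, κ ≤ κ' → NumC p e 2 n κ' → NumC p e 2 n κ := fun {κ'} h h' =>
    le_trans (by gcongr) h'
  have hp2 : p ≠ 2 := by
    rintro rfl
    have : 2 ∣ 2 ^ e := dvd_pow_self 2 (by omega)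
    have h3 : 1 ≤ 2 ^ e := Nat.one_le_two_pow
    omega
  have hp3 : 3 ≤ p := by
    have := hp.two_le
    omega
  have hn2 : 2 ≤ n := by omega
  have hn' : n = 2 ∨ n = 3 ∨ n = 4 ∨ n = 5 ∨ 6 ≤ n := by omega
  rcases hn' with rfl | rfl | rfl | rfl | hn6
  · rcases prime_cases hp hp2 with rfl | rfl | rfl | h11
    · exact hmono (hE _ (R.b2 3)) (three_two (by omega))
    · exact hmono (hE _ R.b52) (NumC.two (by norm_num) he (by norm_num) (by norm_num))
    · exact hmono (hE _ (R.b2 7)) (NumC.two (by norm_num) he (by norm_num) (by norm_num))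
    · exact hmono (hE _ (R.b2 p)) (NumC.two' (P := 11) (by norm_num) h11 he (by norm_num) (by norm_num))
  · rcases prime_cases hp hp2 with rfl | rfl | rfl | h11
    · exact hmono (hE _ R.b33) (NumC.two (by norm_num) he (by norm_num) (by norm_num))
    · exact hmono (hE _ R.b53) (NumC.two (by norm_num) he (by norm_num) (by norm_num))
    · exact hmono (hE _ R.b73) (NumC.two (by norm_num) he (by norm_num) (by norm_num))
    · exact hmono (hE _ (R.b3 p)) (NumC.two' (P := 11) (by norm_num) h11 he (by norm_num) (by norm_num))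
  · rcases prime_cases hp hp2 with rfl | rfl | rfl | h11
    · exact hmono (hE _ R.b34) (NumC.two (by norm_num) he (by norm_num) (by norm_num))
    · exact hmono (hE _ R.b54) (NumC.two (by norm_num) he (by norm_num) (by norm_num))
    · exact hmono (hE _ R.b74) (NumC.two (by norm_num) he (by norm_num) (by norm_num))
    · exact hmono hT (NumC.two' (P := 11) (by norm_num) h11 he (by norm_num)
        (by norm_num [Finset.prod_range_succ]))
  · rcases prime_cases hp hp2 with rfl | hp'
    · exact hmono (hE _ R.b35) (NumC.two (by norm_num) he (by norm_num) (by norm_num))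
    · exact hmono hT (NumC.two' (P := 5) (by norm_num) (by omega) he (by norm_num)
        (by norm_num [Finset.prod_range_succ]))
  · exact hmono (hT.trans (prod_le 2 n)) (NumC.two' (P := 3) (by norm_num) hp3 he hn2 (two_big hn6))

theorem q_ge {p e r : ℕ} (hp : 2 ≤ p) (he : 1 ≤ e) (hd : r ∣ p ^ e - 1) : ∃ k, 1 ≤ k ∧ p ^ e = r * k + 1 := by
  have h2 : 2 ≤ p ^ e := by
    calc 2 ≤ p ^ 1 := by rwa [pow_one]
      _ ≤ p ^ e := Nat.pow_le_pow_right (by omega) he
  obtain ⟨k, hk⟩ := hd
  refine ⟨k, ?_, by omega⟩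
  rcases Nat.eq_zero_or_pos k with rfl | h
  · omega
  · exact h

theorem three_one {p e : ℕ} (hp : p.Prime) (hp5 : 5 ≤ p) (he : 1 ≤ e) (h7 : p ^ e = 7 ∨ 13 ≤ p ^ e) :
    NumC p e 3 1 7 ∧ (13 ≤ p ^ e → NumC p e 3 1 24) := by
  have h13 : 13 ≤ p ^ e → NumC p e 3 1 24 := by
    intro h
    unfold NumC
    norm_num
    rcases Nat.eq_or_lt_of_le he with rfl | h2
    · rw [pow_one] at *
      obtain ⟨k, rfl⟩ := Nat.exists_eq_add_of_le h
      rw [show 13 + k - 1 = 12 + k by omega]
      nlinarith [sq_nonneg k, Nat.zero_le (k ^ 3)]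
    · have h5 : 176 * e ≤ (p ^ e) ^ 2 := by
        have : ∀ j : ℕ, 176 * (j + 2) ≤ (5 ^ (j + 2)) ^ 2 := by
          intro j
          induction j with
          | zero => norm_num
          | succ j ih =>
            have e1 : 5 ^ (j + 1 + 2) = 5 * 5 ^ (j + 2) := by ring
            rw [e1]
            nlinarith
        obtain ⟨j, rfl⟩ := Nat.exists_eq_add_of_le (show 2 ≤ e from h2)
        rw [show 2 + j = j + 2 by omega]
        exact (this j).trans (Nat.pow_le_pow_left (Nat.pow_le_pow_left hp5 _) 2)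
      have h6 : p ^ e - 1 ≤ p ^ e := Nat.sub_le _ _
      calc 2 * e * ((p ^ e - 1) * 11 * 24) = 3 * ((176 * e) * (p ^ e - 1)) := by ring
        _ ≤ 3 * ((p ^ e) ^ 2 * p ^ e) := by gcongr
        _ = 3 * (p ^ e) ^ 3 := by ring
  refine ⟨?_, h13⟩
  rcases h7 with h | h
  · have he1 : e = 1 := by
      by_contra hne
      have : p ^ 2 ≤ p ^ e := Nat.pow_le_pow_right (by omega) (by omega)
      nlinarith
    subst he1
    rw [pow_one] at h
    subst h
    unfold NumC
    norm_num
  · refine le_trans ?_ (h13 h)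
    gcongr
    norm_num

theorem eout_good {p e r n : ℕ} [Fact p.Prime] (he : 1 ≤ e) (R : ERows) {H : Type u} [Group H] [Finite H]
    {C : Subgroup H} {W : Type v}
    (hr : r.Prime) (hn : 1 ≤ n) (hd : r ∣ p ^ e - 1) (hW : Nat.card W = (p ^ e) ^ (r ^ n)) (ho : EOut p e r n C)
    (h1 : ¬ (r = 2 ∧ n = 1)) (h2 : ¬ (p = 3 ∧ e = 1 ∧ r = 2 ∧ n = 2)) : BGood e C W := by
  have hp : p.Prime := Fact.out
  have hrf : Fact r.Prime := ⟨hr⟩
  obtain ⟨ω, Hb, ha, hnd, hcop, hI, hiso, hN⟩ := ho
  intro N hNs hNC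
  obtain ⟨X, hXs, hXi, hk⟩ := hN N hNs hNC
  suffices h : NumC p e r n (kc X) by
    rw [hW]
    have hr0 : 0 < r := hr.pos
    refine Nat.le_of_mul_le_mul_left ?_ hr0
    calc r * (2 * e * kc N) = 2 * e * (r * kc N) := by ring
      _ ≤ 2 * e * ((p ^ e - 1) * (r ^ (2 * n) + r - 1) * kc X) := Nat.mul_le_mul_left _ hk
      _ ≤ _ := h
  have hT := kc_le_order ω ha hnd X hXi
  have hmono : ∀ {κ' : ℕ}, kc X ≤ κ' → NumC p e r n κ' → NumC p e r n (kc X) := fun {κ'} h h' =>
    le_trans (by gcongr) h'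
  rcases Nat.eq_or_lt_of_le hr.two_le with h | hr3
  · subst h
    exact two_case hp he R hn hd (fun h => h1 ⟨rfl, h⟩) (fun h => h2 ⟨h.1, h.2.1, rfl, h.2.2⟩)
      (fun κ' hE => hE ω Hb ha hnd (hiso rfl) hcop hI X hXs) hT
  have hr3 : 3 ≤ r := hr3
  obtain ⟨k, hk1, hq⟩ := q_ge hp.two_le he hd
  have hqr : r + 1 ≤ p ^ e := by
    rw [hq]
    nlinarith
  rcases Nat.eq_or_lt_of_le hr3 with h | hr4
  · subst h
    have hp3 : p ≠ 3 := by
      rintro rfl
      have : 3 ∣ 3 ^ e := dvd_pow_self 3 (by omega)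
      omega
    have hn' : n = 1 ∨ n = 2 ∨ 3 ≤ n := by omega
    rcases hn' with rfl | rfl | hn3
    · by_cases hp2 : p = 2
      · subst hp2
        exact (not_irr Hb hcop hI).elim
      · have hp5 : 5 ≤ p := by
          rcases prime_cases hp hp2 with h | h | h | h <;> omega
        have h5 : 5 ≤ p ^ e := by
          calc 5 ≤ p ^ 1 := by rwa [pow_one]
            _ ≤ p ^ e := Nat.pow_le_pow_right (by omega) he
        have hq2 : p ^ e ≠ 10 := pow_ne hp Nat.prime_two Nat.prime_five (by norm_num) (by norm_num) (by norm_num)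
        have h7 : p ^ e = 7 ∨ 13 ≤ p ^ e := by omega
        obtain ⟨a1, a2⟩ := three_one hp hp5 he h7
        exact hmono (kc_sp_two ω ha hnd X hXi) a1
    · by_cases hp2 : p = 2
      · subst hp2
        have hX2 : ¬ 2 ∣ Nat.card X := fun h => hcop (h.trans (Subgroup.card_dvd_of_le hXs.1))
        have h5 := card_dvd' ω ha hnd X hXi
        norm_num [Finset.prod_range_succ] at h5
        have h6 : Nat.card X ∣ 405 := by
          have h7 : Nat.Coprime (Nat.card X) 128 := by
            rw [show 128 = 2 ^ 7 by norm_num]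
            exact Nat.Coprime.pow_right 7 ((Nat.Prime.coprime_iff_not_dvd Nat.prime_two).2 hX2).symm
          exact h7.dvd_of_dvd_mul_left (show Nat.card X ∣ 128 * 405 from h5)
        have hfinX : Finite X := by
          have : Finite ((Fin (2 * 2) → ZMod 3) ≃ₗ[ZMod 3] (Fin (2 * 2) → ZMod 3)) :=
            Finite.of_injective (fun g => (g : (Fin (2 * 2) → ZMod 3) → (Fin (2 * 2) → ZMod 3))) DFunLike.coe_injective
          infer_instance
        have h8 : kc X ≤ 405 := (kc_le_card X).trans (Nat.le_of_dvd (by norm_num) h6)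
        refine hmono h8 (NumC.odd le_rfl (by norm_num) (by norm_num) ?_)
        calc (3 ^ (2 * 2) + 3 - 1) * 405 ≤ 3 * 4 ^ (3 ^ 2 - 2) := by norm_num
          _ ≤ _ := Nat.mul_le_mul_left _ (Nat.pow_le_pow_left hqr _)
      · have hp5 : 5 ≤ p := by
          rcases prime_cases hp hp2 with h | h | h | h <;> omega
        have h5 : 5 ≤ p ^ e := by
          calc 5 ≤ p ^ 1 := by rwa [pow_one]
            _ ≤ p ^ e := Nat.pow_le_pow_right (by omega) he
        have h7 : p ^ e = 7 ∨ 8 ≤ p ^ e := by omega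
        have hT' : kc X ≤ 51840 := by
          norm_num [Finset.prod_range_succ] at hT
          exact hT
        refine hmono hT' ?_
        rcases h7 with h7 | h8
        · have he1 : e = 1 := by
            by_contra hne
            have : p ^ 2 ≤ p ^ e := Nat.pow_le_pow_right (by omega) (by omega)
            nlinarith
          subst he1
          rw [pow_one] at h7
          subst h7
          unfold NumC
          norm_num
        · refine NumC.odd hp.two_le (by norm_num) (by norm_num) ?_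
          calc (3 ^ (2 * 2) + 3 - 1) * 51840 ≤ 3 * 8 ^ (3 ^ 2 - 2) := by norm_num
            _ ≤ _ := Nat.mul_le_mul_left _ (Nat.pow_le_pow_left h8 _)
    · exact hmono (hT.trans (prod_le 3 n)) (NumC.odd hp.two_le (by norm_num) hn (three_big hn3 (by omega)))
  · have hr5 : 5 ≤ r := by
      rcases Nat.eq_or_lt_of_le hr4 with h | h
      · exact absurd hr (by rw [← h]; norm_num)
      · omega
    rcases Nat.eq_or_lt_of_le hn with rfl | hn2
    · refine hmono hT (NumC.odd hp.two_le hr3 le_rfl (five_one hr5 ?_ hqr ?_))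
      · rintro rfl
        exact absurd hr (by norm_num)
      · rintro rfl
        by_contra hlt
        have hk' : k = 1 := by
          have : 5 * k + 1 < 11 := by omega
          omega
        subst hk'
        exact pow_ne hp Nat.prime_two Nat.prime_three (by norm_num) (by norm_num) (by norm_num) hq
    · exact hmono (hT.trans (prod_le r n)) (NumC.odd hp.two_le hr3 hn (five_big hr5 hn2 (by omega)))

end Cfsg.Agent.H969.KGL
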