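import Cfsg.Agent.H969.KGL.SpEmb
import Cfsg.Agent.H969.KGL.Num

/-!
# Small cases of task E7 of project KGL: `SL₂(3)`
-/

set_option autoImplicit false

namespace Cfsg.Agent.H969.KGL

open Subgroup Cfsg.Agent.H475.KGL
open scoped Matrix

/-- Four entries. -/
abbrev T4 := ZMod 3 × ZMod 3 × ZMod 3 × ZMod 3

def cm (x y : T4) : Bool := (x.2.1 * y.2.2.1 = x.2.2.1 * y.2.1) ∧
  (x.1 * y.2.1 + x.2.1 * y.2.2.2 = y.1 * x.2.1 + y.2.1 * x.2.2.2) ∧
  (x.2.2.1 * y.1 + x.2.2.2 * y.2.2.1 = y.2.2.1 * x.1 + y.2.2.2 * x.2.2.1)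

def dt (x : T4) : ZMod 3 := x.1 * x.2.2.2 - x.2.1 * x.2.2.1

def sc (x : T4) : Bool := x.2.1 = 0 ∧ x.2.2.1 = 0 ∧ x.1 = x.2.2.2

theorem cnt : ∀ x : T4, sc x = false →
    ((Finset.univ : Finset T4).filter (fun y => dt y = 1 ∧ cm x y)).card ≤ 6 := by
  decide +kernel

theorem cnt_sc : ((Finset.univ : Finset T4).filter (fun y => dt y = 1 ∧ sc y)).card ≤ 2 := by
  decide +kernel

theorem kc_le_seven {X : Type*} [Group X] [Finite X] (φ : X → T4) (hφ : Function.Injective φ)
    (hd : ∀ x, dt (φ x) = 1) (hc : ∀ x y, Commute x y → cm (φ x) (φ y) = true) : kc X ≤ 7 := by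
  classical
  by_contra hcon
  have hle := kc_le_card X
  have hF : Fintype X := Fintype.ofFinite X
  have h1 := card_comm_eq_card_conjClasses_mul_card X
  have h2 : Nat.card {p : X × X // Commute p.1 p.2} = ∑ x : X, (Finset.univ.filter fun y : X => Commute x y).card := by
    rw [Nat.card_eq_fintype_card, Fintype.card_subtype, ← Finset.univ_product_univ, Finset.card_filter,
      Finset.sum_product]
    refine Finset.sum_congr rfl fun x _ => ?_
    rw [Finset.card_filter]
  have h3 : ∀ x : X, (Finset.univ.filter fun y : X => Commute x y).card ≤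
      6 + if sc (φ x) then Nat.card X - 6 else 0 := by
    intro x
    split
    · rename_i h
      have : (Finset.univ.filter fun y : X => Commute x y).card ≤ Nat.card X := by
        rw [Nat.card_eq_fintype_card]
        exact Finset.card_le_univ _
      omega
    · rename_i h
      rw [add_zero]
      refine le_trans ?_ (cnt (φ x) (by simpa using h))
      refine Finset.card_le_card_of_injOn φ ?_ hφ.injOn
      intro y hy
      have hy' : Commute x y := by simpa using hy
      simp only [Finset.coe_filter, Finset.mem_univ, true_and]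
      exact ⟨hd y, hc x y hy'⟩
  have h4 : (Finset.univ.filter fun x : X => sc (φ x) = true).card ≤ 2 := by
    refine le_trans ?_ cnt_sc
    refine Finset.card_le_card_of_injOn φ ?_ hφ.injOn
    intro y hy
    have hy' : sc (φ y) = true := by simpa using hy
    simp only [Finset.coe_filter, Finset.mem_univ, true_and]
    exact ⟨hd y, hy'⟩
  have h5 : ∑ x : X, (Finset.univ.filter fun y : X => Commute x y).card ≤
      6 * Nat.card X + 2 * (Nat.card X - 6) := by
    refine (Finset.sum_le_sum fun x _ => h3 x).trans ?_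
    rw [Finset.sum_add_distrib, Finset.sum_const, Finset.card_univ, smul_eq_mul, ← Nat.card_eq_fintype_card, mul_comm,
      Finset.sum_ite, Finset.sum_const_zero, add_zero, Finset.sum_const, smul_eq_mul]
    gcongr
  rw [h2] at h1
  rw [h1] at h5
  have h7 : 8 ≤ Nat.card (ConjClasses X) := Nat.lt_of_not_le hcon
  have h6 : 8 * Nat.card X ≤ Nat.card (ConjClasses X) * Nat.card X := Nat.mul_le_mul_right _ h7
  have h8 : 8 ≤ Nat.card X := h7.trans hle
  omega

/-- Subgroups of `SL₂(3)` have at most `7` classes. -/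
theorem kc_sp_two (ω : LinearMap.BilinForm (ZMod 3) (Fin (2 * 1) → ZMod 3))
    (ha : ω.IsAlt) (hn : ω.Nondegenerate) (X : Subgroup ((Fin (2 * 1) → ZMod 3) ≃ₗ[ZMod 3] (Fin (2 * 1) → ZMod 3)))
    (hX : ∀ x ∈ X, ∀ u v, ω (x u) (x v) = ω u v) : kc X ≤ 7 := by
  have : Fact (Nat.Prime 3) := ⟨Nat.prime_three⟩
  obtain ⟨f, hf⟩ := exists_emb (n := 1) (by simp) ω ha hn X hX
  have : Finite X := by
    have : Finite ((Fin (2 * 1) → ZMod 3) ≃ₗ[ZMod 3] (Fin (2 * 1) → ZMod 3)) :=
      Finite.of_injective (fun g => (g : (Fin (2 * 1) → ZMod 3) → (Fin (2 * 1) → ZMod 3))) DFunLike.coe_injective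
    infer_instance
  let ψ : Matrix (Fin 1 ⊕ Fin 1) (Fin 1 ⊕ Fin 1) (ZMod 3) → T4 := fun A =>
    (A (Sum.inl 0) (Sum.inl 0), A (Sum.inl 0) (Sum.inr 0), A (Sum.inr 0) (Sum.inl 0), A (Sum.inr 0) (Sum.inr 0))
  have hψ : Function.Injective ψ := by
    intro A B h
    simp only [ψ, Prod.mk.injEq] at h
    ext (i | i) (j | j) <;> obtain rfl : i = 0 := Subsingleton.elim _ _ <;>
      obtain rfl : j = 0 := Subsingleton.elim _ _
    · exact h.1
    · exact h.2.1
    · exact h.2.2.1
    · exact h.2.2.2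
  refine kc_le_seven (fun x : X => ψ (f x : Matrix _ _ _)) ?_ ?_ ?_
  · intro x y h
    exact hf (Subtype.ext (hψ h))
  · intro x
    have h1 := SymplecticGroup.symplectic_det (f x).2
    rw [← Matrix.fromBlocks_toBlocks (f x : Matrix (Fin 1 ⊕ Fin 1) (Fin 1 ⊕ Fin 1) (ZMod 3))] at h1
    have h2 := SymplecticGroup.mem_iff'.1 (f x).2
    have h3 := congrFun (congrFun h2 (Sum.inr 0)) (Sum.inl 0)
    simp only [Matrix.mul_apply, Matrix.J, Fintype.sum_sum_type, Finset.univ_unique, Fin.default_eq_zero,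
      Finset.sum_singleton, Matrix.transpose_apply, Matrix.fromBlocks_apply₁₁, Matrix.fromBlocks_apply₁₂,
      Matrix.fromBlocks_apply₂₁, Matrix.fromBlocks_apply₂₂, Matrix.zero_apply, Matrix.neg_apply,
      Matrix.one_apply_eq] at h3
    change (f x).1 (Sum.inl 0) (Sum.inl 0) * (f x).1 (Sum.inr 0) (Sum.inr 0) -
      (f x).1 (Sum.inl 0) (Sum.inr 0) * (f x).1 (Sum.inr 0) (Sum.inl 0) = 1
    linear_combination h3
  · intro x y hxy
    have h1 : (f x).1 * (f y).1 = (f y).1 * (f x).1 := by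
      have := congrArg Subtype.val ((hxy.map f).eq)
      exact this
    have e00 := congrFun (congrFun h1 (Sum.inl 0)) (Sum.inl 0)
    have e01 := congrFun (congrFun h1 (Sum.inl 0)) (Sum.inr 0)
    have e10 := congrFun (congrFun h1 (Sum.inr 0)) (Sum.inl 0)
    simp only [Matrix.mul_apply, Fintype.sum_sum_type, Finset.univ_unique, Fin.default_eq_zero,
      Finset.sum_singleton] at e00 e01 e10
    simp only [cm, decide_eq_true_eq, ψ]
    refine ⟨?_, ?_, ?_⟩
    · linear_combination e00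
    · linear_combination e01
    · linear_combination e10

/-- A group of odd order is reducible on `F₃²`. -/
theorem not_irr (Hb : Subgroup ((Fin (2 * 1) → ZMod 3) ≃ₗ[ZMod 3] (Fin (2 * 1) → ZMod 3)))
    (h2 : ¬ 2 ∣ Nat.card Hb) (hI : Irr Hb) : False := by
  have : Fact (Nat.Prime 3) := ⟨Nat.prime_three⟩
  have hfin : Finite ((Fin (2 * 1) → ZMod 3) ≃ₗ[ZMod 3] (Fin (2 * 1) → ZMod 3)) :=
    Finite.of_injective (fun g => (g : (Fin (2 * 1) → ZMod 3) → (Fin (2 * 1) → ZMod 3))) DFunLike.coe_injective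
  have hc : Nat.card ((Fin (2 * 1) → ZMod 3) ≃ₗ[ZMod 3] (Fin (2 * 1) → ZMod 3)) = 48 := by
    have e : (Matrix.GeneralLinearGroup (Fin (2 * 1)) (ZMod 3)) ≃* _ :=
      Matrix.GeneralLinearGroup.toLin.trans (LinearMap.GeneralLinearGroup.generalLinearEquiv _ _)
    rw [← Nat.card_congr e.toEquiv, Matrix.card_GL_field]
    simp [Fin.prod_univ_two, ZMod.card]
  have h3 : Nat.card Hb ∣ 3 := by
    have h4 : Nat.card Hb ∣ 16 * 3 := by
      have := Subgroup.card_subgroup_dvd_card Hb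
      rwa [hc] at this
    have h5 : Nat.Coprime (Nat.card Hb) 16 := by
      rw [show 16 = 2 ^ 4 by norm_num]
      exact Nat.Coprime.pow_right 4 ((Nat.Prime.coprime_iff_not_dvd Nat.prime_two).2 h2).symm
    exact h5.dvd_of_dvd_mul_left h4
  have hp : IsPGroup 3 Hb := by
    rcases (Nat.dvd_prime Nat.prime_three).1 h3 with h | h
    · exact IsPGroup.of_card (n := 0) (by rw [h, pow_zero])
    · exact IsPGroup.of_card (n := 1) (by rw [h, pow_one])
  have h6 := hp.card_modEq_card_fixedPoints (Fin (2 * 1) → ZMod 3)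
  have h7 : Nat.card (Fin (2 * 1) → ZMod 3) = 9 := by simp [Nat.card_eq_fintype_card, ZMod.card]
  rw [h7] at h6
  have h8 : 3 ∣ Nat.card (MulAction.fixedPoints Hb (Fin (2 * 1) → ZMod 3)) := by
    have := h6.symm
    rw [Nat.ModEq] at this
    omega
  have h9 : 1 < Nat.card (MulAction.fixedPoints Hb (Fin (2 * 1) → ZMod 3)) := by
    have : 0 < Nat.card (MulAction.fixedPoints Hb (Fin (2 * 1) → ZMod 3)) := by
      have : Nonempty (MulAction.fixedPoints Hb (Fin (2 * 1) → ZMod 3)) :=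
        ⟨⟨0, fun g => map_zero (g : (Fin (2 * 1) → ZMod 3) ≃ₗ[ZMod 3] (Fin (2 * 1) → ZMod 3))⟩⟩
      exact Nat.card_pos
    have := Nat.le_of_dvd this h8
    omega
  have : Nontrivial (MulAction.fixedPoints Hb (Fin (2 * 1) → ZMod 3)) := Finite.one_lt_card_iff_nontrivial.1 h9
  obtain ⟨⟨v, hv⟩, hv0⟩ := exists_ne (⟨0, fun g => map_zero (g : (Fin (2 * 1) → ZMod 3) ≃ₗ[ZMod 3] (Fin (2 * 1) → ZMod 3))⟩ :
    MulAction.fixedPoints Hb (Fin (2 * 1) → ZMod 3))
  have hv0 : v ≠ 0 := fun h => hv0 (Subtype.ext h)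
  have hfix : ∀ g ∈ Hb, g v = v := fun g hg => hv ⟨g, hg⟩
  rcases hI (Submodule.span (ZMod 3) {v}) (fun g hg u hu => by
    obtain ⟨c, rfl⟩ := Submodule.mem_span_singleton.1 hu
    rw [map_smul, hfix g hg]
    exact hu) with h | h
  · exact hv0 (Submodule.span_singleton_eq_bot.1 h)
  · have h10 := finrank_span_singleton (K := ZMod 3) hv0
    rw [h, finrank_top] at h10
    simp at h10

end Cfsg.Agent.H969.KGL
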