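import Cfsg.Agent.H475.KGL.Rows
import Cfsg.Agent.S0752
import Cfsg.Agent.S0245

/-!
# Isometry groups of nondegenerate alternating forms: order bounds (task E7 of project KGL)
-/

set_option autoImplicit false

namespace Cfsg.Agent.H969.KGL

open Subgroup Cfsg.Agent.H475.KGL
open scoped Matrix

section

variable {F : Type*} [Field F] [Fintype F] {V : Type*} [AddCommGroup V] [Module F V]

/-- The isometry group of a nondegenerate alternating form embeds in the symplectic group. -/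
theorem exists_emb {n : ℕ} [FiniteDimensional F V] (hV : Module.finrank F V = 2 * n) (ω : LinearMap.BilinForm F V)
    (ha : ω.IsAlt) (hn : ω.Nondegenerate) (X : Subgroup (V ≃ₗ[F] V)) (hX : ∀ x ∈ X, ∀ u v, ω (x u) (x v) = ω u v) :
    ∃ f : X →* Matrix.symplecticGroup (Fin n) F, Function.Injective f := by
  classical
  obtain ⟨m, k, b, h1, h2, h3, h4⟩ := Cfsg.Agent.S0752.result ω ha
  have hk : k = 0 := by
    rcases Nat.eq_zero_or_pos k with h | h
    · exact h
    · exfalso
      have h5 := (hn.1) (b (Sum.inr ⟨0, h⟩)) (fun v => h4 _ v)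
      exact b.ne_zero _ h5
  subst hk
  have hm : m = n := by
    have := Module.finrank_eq_card_basis b
    rw [hV] at this
    simp only [Fintype.card_sum, Fintype.card_fin] at this
    omega
  subst hm
  let c : Module.Basis (Fin m ⊕ Fin m) F V := b.reindex (Equiv.sumEmpty _ _)
  have hc : ∀ i, c i = b (Sum.inl i) := fun i => by
    simp [c]
  have hneg : ∀ u v, ω u v = - ω v u := fun u v => by
    have h := ha (u + v)
    simp only [map_add, LinearMap.add_apply, ha u, ha v, zero_add, add_zero] at h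
    exact eq_neg_of_add_eq_zero_right h
  have hG : ∀ i j, ω (c i) (c j) = (- Matrix.J (Fin m) F) i j := by
    rintro (i | i) (j | j)
    · rw [hc, hc, h2, Matrix.neg_apply]
      simp [Matrix.J]
    · rw [hc, hc, h1, Matrix.neg_apply]
      simp [Matrix.J, Matrix.one_apply]
    · rw [hc, hc, hneg, h1, Matrix.neg_apply]
      simp [Matrix.J, Matrix.one_apply, eq_comm]
    · rw [hc, hc, h3, Matrix.neg_apply]
      simp [Matrix.J]
  have key : ∀ x : X, (LinearMap.toMatrix c c ((x : V ≃ₗ[F] V) : V →ₗ[F] V)) ∈ Matrix.symplecticGroup (Fin m) F := by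
    intro x
    rw [SymplecticGroup.mem_iff']
    set A := LinearMap.toMatrix c c ((x : V ≃ₗ[F] V) : V →ₗ[F] V) with hA
    have e1 : ∀ j, (x : V ≃ₗ[F] V) (c j) = ∑ i, A i j • c i := by
      intro j
      have := LinearMap.toMatrix_apply c c ((x : V ≃ₗ[F] V) : V →ₗ[F] V)
      rw [← c.sum_repr ((x : V ≃ₗ[F] V) (c j))]
      refine Finset.sum_congr rfl fun i _ => ?_
      rw [hA, this]
      rfl
    have e2 : Aᵀ * (- Matrix.J (Fin m) F) * A = - Matrix.J (Fin m) F := by
      ext i j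
      rw [← hG i j, ← hX x x.2 (c i) (c j), e1 i, e1 j, Matrix.mul_apply]
      simp only [map_sum, LinearMap.sum_apply, map_smul, LinearMap.smul_apply, smul_eq_mul, hG, Matrix.mul_apply,
        Matrix.transpose_apply, Finset.sum_mul]
      refine Finset.sum_congr rfl fun a _ => ?_
      rw [Finset.mul_sum]
      refine Finset.sum_congr rfl fun b _ => ?_
      ring
    rw [Matrix.mul_neg, Matrix.neg_mul, neg_inj] at e2
    exact e2
  refine ⟨{ toFun := fun x => ⟨_, key x⟩, map_one' := ?_, map_mul' := ?_ }, ?_⟩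
  · apply Subtype.ext
    change LinearMap.toMatrix c c (((1 : X) : V ≃ₗ[F] V) : V →ₗ[F] V) = 1
    exact LinearMap.toMatrix_id c
  · intro x y
    apply Subtype.ext
    change LinearMap.toMatrix c c (((x * y : X) : V ≃ₗ[F] V) : V →ₗ[F] V) = _ * _
    rw [← LinearMap.toMatrix_comp]
    rfl
  · intro x y h
    have h5 := congrArg Subtype.val h
    have h6 := (LinearMap.toMatrix c c).injective h5
    apply Subtype.ext
    apply LinearEquiv.toLinearMap_injective
    exact h6

/-- The order of a group of isometries divides the order of the symplectic group. -/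
theorem card_dvd {n q : ℕ} [FiniteDimensional F V] (hq : Fintype.card F = q) (hV : Module.finrank F V = 2 * n)
    (ω : LinearMap.BilinForm F V)
    (ha : ω.IsAlt) (hn : ω.Nondegenerate) (X : Subgroup (V ≃ₗ[F] V)) (hX : ∀ x ∈ X, ∀ u v, ω (x u) (x v) = ω u v) :
    Nat.card X ∣ q ^ (n ^ 2) * ∏ i ∈ Finset.range n, (q ^ (2 * (i + 1)) - 1) := by
  obtain ⟨f, hf⟩ := exists_emb hV ω ha hn X hX
  rw [← Cfsg.Agent.S0245.result hq n]
  exact Subgroup.card_dvd_of_injective f hf

end

/-- The case of `Fin (2 n) → ZMod r`. -/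
theorem card_dvd' {r n : ℕ} [Fact r.Prime] (ω : LinearMap.BilinForm (ZMod r) (Fin (2 * n) → ZMod r))
    (ha : ω.IsAlt) (hn : ω.Nondegenerate) (X : Subgroup ((Fin (2 * n) → ZMod r) ≃ₗ[ZMod r] (Fin (2 * n) → ZMod r)))
    (hX : ∀ x ∈ X, ∀ u v, ω (x u) (x v) = ω u v) :
    Nat.card X ∣ r ^ (n ^ 2) * ∏ i ∈ Finset.range n, (r ^ (2 * (i + 1)) - 1) :=
  card_dvd (ZMod.card r) (by simp) ω ha hn X hX

theorem kc_le_card (G : Type*) [Group G] [Finite G] : kc G ≤ Nat.card G :=
  Nat.card_le_card_of_surjective _ ConjClasses.mk_surjective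

theorem prod_le (r n : ℕ) :
    r ^ (n ^ 2) * ∏ i ∈ Finset.range n, (r ^ (2 * (i + 1)) - 1) ≤ r ^ (2 * n ^ 2 + n) := by
  have h : ∏ i ∈ Finset.range n, (r ^ (2 * (i + 1)) - 1) ≤ r ^ (n ^ 2 + n) := by
    induction n with
    | zero => simp
    | succ k ih =>
      rw [Finset.prod_range_succ]
      calc (∏ i ∈ Finset.range k, (r ^ (2 * (i + 1)) - 1)) * (r ^ (2 * (k + 1)) - 1)
          ≤ r ^ (k ^ 2 + k) * r ^ (2 * (k + 1)) := Nat.mul_le_mul ih (Nat.sub_le _ _)
        _ = r ^ ((k + 1) ^ 2 + (k + 1)) := by rw [← pow_add]; congr 1; ring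
  calc r ^ (n ^ 2) * ∏ i ∈ Finset.range n, (r ^ (2 * (i + 1)) - 1) ≤ r ^ (n ^ 2) * r ^ (n ^ 2 + n) :=
        Nat.mul_le_mul_left _ h
    _ = r ^ (2 * n ^ 2 + n) := by rw [← pow_add]; congr 1; ring

theorem prod_pos (r n : ℕ) (hr : 2 ≤ r) :
    0 < r ^ (n ^ 2) * ∏ i ∈ Finset.range n, (r ^ (2 * (i + 1)) - 1) := by
  apply Nat.mul_pos (by positivity)
  apply Finset.prod_pos
  intro i _
  have : 1 < r ^ (2 * (i + 1)) := Nat.one_lt_pow (by omega) hr
  omega

/-- The trivial bound. -/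
theorem kc_le_order {r n : ℕ} [Fact r.Prime] (ω : LinearMap.BilinForm (ZMod r) (Fin (2 * n) → ZMod r))
    (ha : ω.IsAlt) (hn : ω.Nondegenerate) (X : Subgroup ((Fin (2 * n) → ZMod r) ≃ₗ[ZMod r] (Fin (2 * n) → ZMod r)))
    (hX : ∀ x ∈ X, ∀ u v, ω (x u) (x v) = ω u v) :
    kc X ≤ r ^ (n ^ 2) * ∏ i ∈ Finset.range n, (r ^ (2 * (i + 1)) - 1) := by
  have hr : 2 ≤ r := (Fact.out : r.Prime).two_le
  have h1 := card_dvd' ω ha hn X hX
  have h2 := Nat.le_of_dvd (prod_pos r n hr) h1
  have : Finite X := by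
    have : Finite ((Fin (2 * n) → ZMod r) ≃ₗ[ZMod r] (Fin (2 * n) → ZMod r)) :=
      Finite.of_injective (fun g => (g : (Fin (2 * n) → ZMod r) → (Fin (2 * n) → ZMod r))) DFunLike.coe_injective
    infer_instance
  exact (kc_le_card X).trans h2

end Cfsg.Agent.H969.KGL
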